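import Cfsg.Agent.Fi23Out54.Main
import Cfsg.Agent.ThreeTransp.PrimitiveCrit

/-!
The class of `z0` in the presented Fi23: three-transpositions, primitive; an involution fixes one
of the 31671 members.
-/

set_option autoImplicit false
set_option maxRecDepth 8000

namespace CfsgLib.Fi23Recog54

open scoped commutatorElement
open Cfsg CfsgLib.ThreeTransp CfsgLib.CosetEnum

/-- The class. -/
abbrev cls23 : Set Spor.Fi23 := conjugatesOf Fi23.z0

theorem z0_mem23 : Fi23.z0 ∈ cls23 := mem_conjugatesOf_self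

theorem conj_mem23 (g : Spor.Fi23) {x : Spor.Fi23} (hx : x ∈ cls23) : g * x * g⁻¹ ∈ cls23 :=
  IsConj.trans hx (isConj_iff.2 ⟨g, rfl⟩)

theorem set23 : IsThreeTranspositionSet cls23 := by
  constructor
  · intro d hd
    obtain ⟨g, rfl⟩ := isConj_iff.1 hd
    refine orderOf_eq_prime ?_ ?_
    · rw [conj_pow, conj_eq_one_iff, pow_two, Fi23.z0_sq]
    · rw [ne_eq, conj_eq_one_iff]
      exact Fi23.z0_ne
  · intro d hd e he
    obtain ⟨g, rfl⟩ := isConj_iff.1 hd
    obtain ⟨k, rfl⟩ := isConj_iff.1 he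
    have e' : g * Fi23.z0 * g⁻¹ * (k * Fi23.z0 * k⁻¹) =
        g * (Fi23.z0 * ((g⁻¹ * k) * Fi23.z0 * (g⁻¹ * k)⁻¹)) * g⁻¹ := by group
    rw [e', conj_pow, conj_pow, conj_eq_one_iff, conj_eq_one_iff]
    exact Fi23.mul_conj_pow _

theorem closure23 : Subgroup.closure cls23 = ⊤ := by
  have := Fi23.simple
  have hn : (Subgroup.closure cls23).Normal := by
    refine ⟨fun x hx g => ?_⟩
    have hle : Subgroup.closure cls23 ≤ (Subgroup.closure cls23).comap (MulAut.conj g).toMonoidHom := by
      rw [Subgroup.closure_le]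
      exact fun y hy => Subgroup.subset_closure (conj_mem23 g hy)
    exact hle hx
  refine (IsSimpleGroup.eq_bot_or_eq_top_of_normal _ hn).resolve_left fun h => Fi23.z0_ne ?_
  have hm : Fi23.z0 ∈ Subgroup.closure cls23 := Subgroup.subset_closure z0_mem23
  rwa [h, Subgroup.mem_bot] at hm

theorem ttg23 : IsThreeTranspositionGroup cls23 :=
  ⟨set23, fun g _ hd => conj_mem23 g hd, closure23⟩

theorem ttc23 : IsThreeTranspositionClass cls23 := ⟨set23, ⟨Fi23.z0, z0_mem23, rfl⟩, closure23⟩

theorem not_central23 : ∃ g : Spor.Fi23, ¬ Commute Fi23.z0 g := by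
  by_contra! h
  have hc : Subgroup.centralizer {Fi23.z0} = ⊤ := eq_top_iff.2 fun g _ =>
    Subgroup.mem_centralizer_iff.2 fun x hx => by rw [Set.mem_singleton_iff.1 hx]; exact h g
  have := Fi23.index_and_card_Hs.1
  rw [← Fi23.centralizer_z0, hc, Subgroup.index_top] at this
  omega

theorem commutator23 : commutator Spor.Fi23 = ⊤ := by
  have := Fi23.simple
  obtain ⟨g, hg⟩ := not_central23
  refine (IsSimpleGroup.eq_bot_or_eq_top_of_normal _ inferInstance).resolve_left fun h => hg ?_
  exact commutatorElement_eq_one_iff_mul_comm.1 (by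
    have hm : ⁅Fi23.z0, g⁆ ∈ commutator Spor.Fi23 :=
      Subgroup.commutator_mem_commutator (Subgroup.mem_top _) (Subgroup.mem_top g)
    rwa [h, Subgroup.mem_bot] at hm)

theorem primitive23 : IsPrimitiveUnderConj cls23 := by
  have := Fi23.simple
  have := Fi23.finite_fi23
  obtain ⟨g, hg⟩ := not_central23
  have hperf : ⁅commutator Spor.Fi23, commutator Spor.Fi23⁆ = commutator Spor.Fi23 := by
    rw [commutator23]; exact commutator23
  refine primitive_of_perfect ttc23 ⟨Fi23.z0, z0_mem23, g * Fi23.z0 * g⁻¹,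
    conj_mem23 g z0_mem23, fun e => hg (mul_inv_eq_iff_eq_mul.1 e.symm).symm⟩ hperf
    fun N hN _ hsol => ?_
  refine (IsSimpleGroup.eq_bot_or_eq_top_of_normal N hN).resolve_right fun h => hg ?_
  subst h
  have : Group.IsSolvable Spor.Fi23 :=
    Group.isSolvable_of_surjective (f := (Subgroup.topEquiv (G := Spor.Fi23)).toMonoidHom)
      (Subgroup.topEquiv (G := Spor.Fi23)).surjective
  exact IsSimpleGroup.comm_iff_isSolvable.2 this _ _

/-- An involution commutes with a member. -/
theorem exists_commute23 {x : Spor.Fi23} (hx : x * x = 1) :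
    ∃ m : Spor.Fi23, Commute x (m * Fi23.z0 * m⁻¹) := by
  classical
  have hσ : Fi23.pi x ^ 2 ^ 1 = 1 := by rw [pow_one, pow_two, ← map_mul, hx, map_one]
  have : Fact (Nat.Prime 2) := ⟨Nat.prime_two⟩
  have hmod := Equiv.Perm.card_compl_support_modEq hσ
  obtain ⟨p, hp⟩ : ∃ p : Fi23Out54.Pt, Fi23.pi x p = p := by
    by_contra! h
    have h0 : (Fi23.pi x).supportᶜ = ∅ := by
      ext p
      simp [h p]
    rw [h0, Finset.card_empty, Fintype.card_fin] at hmod
    exact absurd hmod (by decide)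
  exact ⟨Fi23Out54.move p, Fi23Out54.commute_tran_of_fix hp⟩

end CfsgLib.Fi23Recog54
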