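import Cfsg.Agent.Fi23Recog54.Class23
import Cfsg.Agent.ThreeTransp.M23Pair
import Cfsg.Agent.ThreeTransp.M23Inv
import Cfsg.Agent.OddCons48.WeakCentral
import Cfsg.Agent.Fus.CenterZStar

/-!
A subgroup isomorphic to Fi23 containing the centralizer of a member, all conjugates of that member
commuting with it being members, is the whole group: the centralizers of the three classes of
involutions lie in it, the one of a product of two by the Z*-theorem.
-/

set_option autoImplicit false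

namespace CfsgLib.Fi23Recog54

open Cfsg CfsgLib.ThreeTransp CfsgLib.CosetEnum

universe u

/-- Two involutions are conjugate in the group they generate or centralise a third one. -/
theorem dihedral54 {X : Type u} [Group X] [Finite X] {x y : X} (hx : x * x = 1) (hy : y * y = 1) :
    (∃ g ∈ Subgroup.closure ({x, y} : Set X), g * x * g⁻¹ = y) ∨
      ∃ k, k ≠ 1 ∧ k * k = 1 ∧ Commute k x ∧ Commute k y ∧
        ∃ g, g * x * g⁻¹ = k * x ∨ g * y * g⁻¹ = k * x := by
  have hxi : x⁻¹ = x := inv_eq_of_mul_eq_one_right hx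
  have hyi : y⁻¹ = y := inv_eq_of_mul_eq_one_right hy
  have hflip : ∀ j : ℕ, x * ((x * y) ^ j)⁻¹ = (x * y) ^ j * x := by
    intro j
    have h : x * (x * y)⁻¹ * x⁻¹ = x * y := by rw [mul_inv_rev, hxi, hyi]; simp [mul_assoc, hx]
    have h' : x * ((x * y)⁻¹) ^ j * x⁻¹ = (x * y) ^ j := by rw [← conj_pow, h]
    rw [← inv_pow, ← h']
    group
  obtain ⟨n, hn⟩ : ∃ n, orderOf (x * y) = n := ⟨_, rfl⟩
  have hpow : (x * y) ^ n = 1 := hn ▸ pow_orderOf_eq_one _
  have hn0 : 0 < n := hn ▸ orderOf_pos _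
  rcases Nat.even_or_odd' n with ⟨m, rfl | rfl⟩
  · right
    obtain ⟨k, hk⟩ : ∃ k, (x * y) ^ m = k := ⟨_, rfl⟩
    have hkk : k * k = 1 := by rw [← hk, ← pow_add, ← two_mul, hpow]
    have hki : k⁻¹ = k := inv_eq_of_mul_eq_one_right hkk
    have hkx : Commute k x := by
      have h := hflip m
      rw [hk, hki] at h
      exact h.symm
    have hky : Commute k y := by
      rw [show y = x * (x * y) by rw [← mul_assoc, hx, one_mul]]
      refine hkx.mul_right ?_
      rw [← hk]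
      exact (Commute.refl _).pow_left m
    refine ⟨k, fun h => ?_, hkk, hkx, hky, ?_⟩
    · have := orderOf_le_of_pow_eq_one (by omega) (hk.trans h)
      omega
    rcases Nat.even_or_odd' m with ⟨j, rfl | rfl⟩
    · exact ⟨(x * y) ^ j, Or.inl (by rw [mul_assoc, hflip, ← mul_assoc, ← pow_add, ← two_mul, hk])⟩
    · refine ⟨(x * y) ^ j * x, Or.inr ?_⟩
      rw [mul_inv_rev, hxi, show (x * y) ^ j * x * y * (x * ((x * y) ^ j)⁻¹) =
        (x * y) ^ j * (x * y) * ((x * y) ^ j * x) by rw [hflip]; simp [mul_assoc],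
        ← pow_succ, ← mul_assoc, ← pow_add, ← hk]
      congr 2
      omega
  · left
    have hxc : x ∈ Subgroup.closure ({x, y} : Set X) := Subgroup.subset_closure (Set.mem_insert _ _)
    have hyc : y ∈ Subgroup.closure ({x, y} : Set X) :=
      Subgroup.subset_closure (Set.mem_insert_of_mem _ rfl)
    refine ⟨x * (x * y) ^ (m + 1), mul_mem hxc (pow_mem (mul_mem hxc hyc) _), ?_⟩
    rw [mul_inv_rev, hxi, show x * (x * y) ^ (m + 1) * x * (((x * y) ^ (m + 1))⁻¹ * x) =
      x * ((x * y) ^ (m + 1) * (x * ((x * y) ^ (m + 1))⁻¹)) * x by simp [mul_assoc],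
      hflip, ← mul_assoc ((x * y) ^ (m + 1)), ← pow_add,
      show (m + 1) + (m + 1) = (2 * m + 1) + 1 by omega, pow_succ, hpow, one_mul]
    simp only [mul_assoc, hx, mul_one]
    rw [← mul_assoc, hx, one_mul]

/-- An odd normal subgroup of a quasisimple group whose centre squares to one is trivial. -/
theorem odd_normal_trivial {K : Type u} [Group K] [Finite K] (hq : Cfsg.IsQuasisimple K)
    (hev : ∃ z : K, orderOf z = 2) (hZ : ∀ z ∈ Subgroup.center K, z * z = 1) (N : Subgroup K)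
    [N.Normal] (hodd : Odd (Nat.card N)) : N = ⊥ := by
  have := hq.2
  have hkey : N ≤ Subgroup.center K → N = ⊥ := fun h => (Subgroup.eq_bot_iff_forall N).2 fun z hz => by
    have h2 : (⟨z, hz⟩ : ↥N) ^ 2 = 1 := Subtype.ext (by rw [pow_two]; exact hZ z (h hz))
    have h3 := Nat.eq_one_of_dvd_coprimes (Nat.coprime_two_left.2 hodd)
      (orderOf_dvd_of_pow_eq_one h2) (orderOf_dvd_natCard _)
    exact congrArg Subtype.val (orderOf_eq_one_iff.1 h3)
  rcases IsSimpleGroup.eq_bot_or_eq_top_of_normal (N.map (QuotientGroup.mk' (Subgroup.center K)))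
    (Subgroup.Normal.map inferInstance _ (QuotientGroup.mk'_surjective _)) with h | h
  · refine hkey ?_
    have h' := (Subgroup.map_eq_bot_iff N).1 h
    rwa [QuotientGroup.ker_mk'] at h'
  · exfalso
    have hsup : N ⊔ Subgroup.center K = ⊤ := by
      have h' := congrArg (Subgroup.comap (QuotientGroup.mk' (Subgroup.center K))) h
      rwa [Subgroup.comap_map_eq, QuotientGroup.ker_mk', Subgroup.comap_top] at h'
    have htop : N = ⊤ := by
      refine eq_top_iff.2 ?_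
      rw [← hq.1.commutator_eq_top, commutator_def, Subgroup.commutator_le]
      intro u _ v _
      have hu : u ∈ N ⊔ Subgroup.center K := hsup ▸ Subgroup.mem_top u
      obtain ⟨n, hn, z, hz, rfl⟩ := Subgroup.mem_sup_of_normal_right.1 hu
      have hzv : z * v * z⁻¹ = v := by
        rw [← Subgroup.mem_center_iff.1 hz v, mul_inv_cancel_right]
      rw [commutatorElement_def, show n * z * v * (n * z)⁻¹ * v⁻¹ =
        n * (z * v * z⁻¹) * n⁻¹ * v⁻¹ by group, hzv,
        show n * v * n⁻¹ * v⁻¹ = n * (v * n⁻¹ * v⁻¹) by group]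
      exact mul_mem hn (Subgroup.Normal.conj_mem inferInstance _ (inv_mem hn) v)
    obtain ⟨z, hz⟩ := hev
    rw [htop, Subgroup.card_top] at hodd
    exact (Nat.not_even_iff_odd.2 hodd) (even_iff_two_dvd.2 (hz ▸ orderOf_dvd_natCard z))

variable {G : Type u} [Group G] [Finite G] {d : G}

/-- The hypotheses on the embedded Fi23. -/
structure Embedded (d : G) where
  /-- the embedding -/
  ψ : Spor.Fi23 →* G
  inj : Function.Injective ψ
  map_z0 : ψ Fi23.z0 = d
  cent : Subgroup.centralizer ({d} : Set G) ≤ ψ.range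
  nd : ∀ z, IsConj d z → Commute z d → ∃ w ∈ cls23, ψ w = z

namespace Embedded

variable (E : Embedded d)

theorem cent_cls {x : Spor.Fi23} (hx : x ∈ cls23) {g : G} (hg : Commute g (E.ψ x)) : g ∈ E.ψ.range := by
  obtain ⟨k, rfl⟩ := isConj_iff.1 hx
  have h : (E.ψ k)⁻¹ * g * E.ψ k ∈ E.ψ.range := by
    refine E.cent (Subgroup.mem_centralizer_singleton_iff.2 ?_)
    show Commute ((E.ψ k)⁻¹ * g * E.ψ k) d
    refine (commute_conj_iff' (g := E.ψ k)).1 ?_
    rw [show E.ψ k * ((E.ψ k)⁻¹ * g * E.ψ k) * (E.ψ k)⁻¹ = g by group,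
      show E.ψ k * d * (E.ψ k)⁻¹ = E.ψ (k * Fi23.z0 * k⁻¹) by
        simp only [map_mul, map_inv, E.map_z0]]
    exact hg
  have := mul_mem (mul_mem (MonoidHom.mem_range.2 ⟨k, rfl⟩ : E.ψ k ∈ E.ψ.range) h)
    (inv_mem (MonoidHom.mem_range.2 ⟨k, rfl⟩ : E.ψ k ∈ E.ψ.range))
  rwa [show E.ψ k * ((E.ψ k)⁻¹ * g * E.ψ k) * (E.ψ k)⁻¹ = g by group] at this

theorem conj_cls {x : Spor.Fi23} (hx : x ∈ cls23) : IsConj d (E.ψ x) := by
  obtain ⟨k, rfl⟩ := isConj_iff.1 hx
  exact isConj_iff.2 ⟨E.ψ k, by simp only [map_mul, map_inv, E.map_z0]⟩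

include E in
theorem sq_d : d * d = 1 := by
  have h := congrArg E.ψ Fi23.z0_sq
  rwa [map_mul, map_one, E.map_z0] at h

theorem mem_cls_of_conj {u : Spor.Fi23} (h : IsConj d (E.ψ u)) : u ∈ cls23 := by
  have hu : u * u = 1 := E.inj (by
    obtain ⟨g, hg⟩ := isConj_iff.1 h
    rw [map_mul, map_one, ← hg, conj_mul, E.sq_d, mul_one, mul_inv_cancel])
  obtain ⟨m, hm⟩ := exists_commute23 hu
  have hm' : Commute (E.ψ (m⁻¹ * u * m)) d := by
    suffices h' : Commute (E.ψ (m⁻¹ * u * m)) (E.ψ Fi23.z0) by rwa [E.map_z0] at h'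
    refine Commute.map ?_ E.ψ
    refine (commute_conj_iff' (g := m)).1 ?_
    rwa [show m * (m⁻¹ * u * m) * m⁻¹ = u by group]
  obtain ⟨w, hw, hwe⟩ := E.nd _ (h.trans (isConj_iff.2 ⟨(E.ψ m)⁻¹, by
    rw [map_mul, map_mul, map_inv, inv_inv]⟩)) hm'
  have := conj_mem23 m hw
  rwa [E.inj hwe, show m * (m⁻¹ * u * m) * m⁻¹ = u by group] at this

/-- A member fixes one coset. -/
theorem fix_one {x : Spor.Fi23} (hx : x ∈ cls23) {g : G}
    (hg : g * E.ψ x * g⁻¹ ∈ E.ψ.range) : g ∈ E.ψ.range := by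
  obtain ⟨u, hu⟩ := hg
  have huc := E.mem_cls_of_conj (hu ▸ (E.conj_cls hx).trans (isConj_iff.2 ⟨g, rfl⟩))
  obtain ⟨k, hk⟩ := primitive23.1 x hx u huc
  have h : (E.ψ k)⁻¹ * g ∈ E.ψ.range := E.cent_cls hx (by
    show (E.ψ k)⁻¹ * g * E.ψ x = E.ψ x * ((E.ψ k)⁻¹ * g)
    rw [show (E.ψ k)⁻¹ * g * E.ψ x = (E.ψ k)⁻¹ * (g * E.ψ x * g⁻¹) * g by group, ← hu, ← hk,
      map_mul, map_mul, map_inv]
    group)
  have := mul_mem (MonoidHom.mem_range.2 ⟨k, rfl⟩ : E.ψ k ∈ E.ψ.range) h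
  rwa [mul_inv_cancel_left] at this

variable (h23 : IsOfTypeM23 Spor.Fi23 cls23)
include h23

omit h23 in
theorem conj_mem_iff (h : Spor.Fi23) {x y : Spor.Fi23} : Commute (h * x * h⁻¹) (h * y * h⁻¹) ↔
    Commute x y := commute_conj_iff'

/-- An element commuting with a product of two commuting members permutes them. -/
theorem perm_pair {a b : Spor.Fi23} (ha : a ∈ cls23) (hb : b ∈ nbr cls23 a) {h : Spor.Fi23}
    (hh : Commute h (a * b)) :
    (h * a * h⁻¹ = a ∧ h * b * h⁻¹ = b) ∨ (h * a * h⁻¹ = b ∧ h * b * h⁻¹ = a) := by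
  have := Fi23.finite_fi23
  have hne : h * a * h⁻¹ ≠ h * b * h⁻¹ := fun e => hb.2.1 (mul_left_cancel (mul_right_cancel e)).symm
  have hl : IsFact cls23 2 (a * b) [a, b] :=
    ⟨by simp [Ne.symm hb.2.1], rfl, by simp [ha, hb.1], by simp [hb.2.2, hb.2.2.symm], by simp⟩
  have hl' : IsFact cls23 2 (a * b) [h * a * h⁻¹, h * b * h⁻¹] := by
    refine ⟨by simp [hne], rfl, by simp [conj_mem23 h ha, conj_mem23 h hb.1],
      by simp [hb.2.2, hb.2.2.symm], ?_⟩
    simp only [List.prod_cons, List.prod_nil, mul_one]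
    rw [conj_mul, hh.eq, mul_inv_cancel_right]
  have key := pair_unique set23 (m23_noTwins_prim ttg23 primitive23 h23) hl' hl
  have h1 : h * a * h⁻¹ = a ∨ h * a * h⁻¹ = b := by simpa using (key _).1 (by simp)
  have h2 : h * b * h⁻¹ = a ∨ h * b * h⁻¹ = b := by simpa using (key _).1 (by simp)
  rcases h1 with h1 | h1 <;> rcases h2 with h2 | h2
  · exact absurd (h1.trans h2.symm) hne
  · exact Or.inl ⟨h1, h2⟩
  · exact Or.inr ⟨h1, h2⟩
  · exact absurd (h1.trans h2.symm) hne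

/-- The centralizer of a product of two commuting members lies in the subgroup. -/
theorem cent_pair {a b : Spor.Fi23} (ha : a ∈ cls23) (hb : b ∈ nbr cls23 a) {g : G}
    (hg : Commute g (E.ψ (a * b))) : g ∈ E.ψ.range := by
  classical
  have := Fi23.finite_fi23
  have hsq : ∀ {x}, x ∈ cls23 → x * x = 1 := fun hx => tt_mul_self set23 hx
  obtain ⟨M, hM⟩ : ∃ M, Subgroup.centralizer ({E.ψ (a * b)} : Set G) = M := ⟨_, rfl⟩
  have memM : ∀ {z : G}, z ∈ M ↔ Commute z (E.ψ (a * b)) := fun {z} => by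
    rw [← hM, Subgroup.mem_centralizer_singleton_iff]; rfl
  have habc : Commute a b := hb.2.2
  have haab : Commute a (a * b) := (Commute.refl a).mul_right habc
  have hbab : Commute b (a * b) := habc.symm.mul_right (Commute.refl b)
  have haM : E.ψ a ∈ M := memM.2 (haab.map E.ψ)
  have hiM : E.ψ (a * b) ∈ M := memM.2 (Commute.refl _)
  -- odd normal subgroups
  obtain ⟨O, hO⟩ : ∃ O, (pPrimeCore 2 ↥M).map M.subtype = O := ⟨_, rfl⟩
  have hOs := SelfCentPrime.pPrimeCore_mem (G := ↥M) 2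
  have hOodd : Odd (Nat.card O) := by
    rw [← hO, Nat.card_congr ((pPrimeCore 2 ↥M).equivMapOfInjective _ M.subtype_injective).toEquiv.symm]
    exact Nat.coprime_two_right.1 hOs.2
  have hOM : O ≤ M := hO ▸ Subgroup.map_subtype_le _
  have hOn : ∀ m ∈ M, ∀ o ∈ O, m * o * m⁻¹ ∈ O := by
    intro m hm o ho
    rw [← hO] at ho ⊢
    obtain ⟨o', ho', rfl⟩ := ho
    exact ⟨⟨m, hm⟩ * o' * ⟨m, hm⟩⁻¹, hOs.1.conj_mem _ ho' _, rfl⟩
  obtain ⟨K, hK⟩ : ∃ K, Subgroup.centralizer ({a, b} : Set Spor.Fi23) = K := ⟨_, rfl⟩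
  have memK : ∀ {h : Spor.Fi23}, h ∈ K ↔ Commute h a ∧ Commute h b := fun {h} => by
    rw [← hK, Subgroup.mem_centralizer_iff]
    refine ⟨fun e => ⟨(e a (Or.inl rfl)).symm, (e b (Or.inr rfl)).symm⟩, ?_⟩
    rintro ⟨e1, e2⟩ _ (rfl | rfl)
    · exact e1.symm
    · exact e2.symm
  have hKM : ∀ {h}, h ∈ K → E.ψ h ∈ M := fun hh =>
    memM.2 (((memK.1 hh).1.mul_right (memK.1 hh).2).map E.ψ)
  have hO1 : ∀ o ∈ O, o ∈ E.ψ.range → o = 1 := by
    rintro _ ho ⟨h, rfl⟩
    have hhc : Commute h (a * b) := by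
      have e := memM.1 (hOM ho)
      rw [commute_iff_eq, ← map_mul, ← map_mul] at e
      exact E.inj e
    have hord : Odd (orderOf h) := by
      rw [← orderOf_injective E.ψ E.inj h]
      exact hOodd.of_dvd_nat (Subgroup.orderOf_dvd_natCard O ho)
    have hhK : h ∈ K := by
      rcases perm_pair h23 ha hb hhc with e | e
      · exact memK.2 ⟨mul_inv_eq_iff_eq_mul.1 e.1, mul_inv_eq_iff_eq_mul.1 e.2⟩
      · exfalso
        have hpow : ∀ n, h ^ n * a * (h ^ n)⁻¹ = if Even n then a else b := by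
          intro n
          induction n with
          | zero => simp
          | succ n ih =>
            rw [pow_succ', show h * h ^ n * a * (h * h ^ n)⁻¹ = h * (h ^ n * a * (h ^ n)⁻¹) * h⁻¹ by
              group, ih]
            by_cases hn : Even n
            · rw [if_pos hn, if_neg (by simp [hn, Nat.even_add_one]), e.1]
            · rw [if_neg hn, if_pos (Nat.even_add_one.2 hn), e.2]
        have := hpow (orderOf h)
        rw [pow_orderOf_eq_one, if_neg (Nat.not_even_iff_odd.2 hord)] at this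
        exact hb.2.1 (by simpa using this.symm)
    obtain ⟨-, hq, -⟩ := m23_pair_structure ttg23 primitive23 h23 ha hb K hK.symm
    obtain ⟨hZ, -⟩ := m23_pair_structure ttg23 primitive23 h23 ha hb K hK.symm
    obtain ⟨N, hN⟩ : ∃ N : Subgroup ↥K, (O.comap E.ψ).subgroupOf K = N := ⟨_, rfl⟩
    have hNn : N.Normal := ⟨fun z hz k => by
      rw [← hN, Subgroup.mem_subgroupOf, Subgroup.mem_comap] at hz ⊢
      rw [Subgroup.coe_mul, Subgroup.coe_mul, InvMemClass.coe_inv, map_mul, map_mul, map_inv]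
      exact hOn _ (hKM k.2) _ hz⟩
    have hNodd : Odd (Nat.card N) := by
      refine hOodd.of_dvd_nat ?_
      obtain ⟨j, hj⟩ : ∃ j : ↥N →* ↥O, Function.Injective j := by
        refine ⟨MonoidHom.mk' (fun z => ⟨E.ψ ((z : ↥K) : Spor.Fi23), ?_⟩) fun z w => ?_, ?_⟩
        · exact (show (z : ↥K) ∈ (O.comap E.ψ).subgroupOf K by rw [hN]; exact z.2)
        · exact Subtype.ext (map_mul E.ψ _ _)
        · exact fun z w e => Subtype.ext (Subtype.ext (E.inj (congrArg Subtype.val e)))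
      exact Subgroup.card_dvd_of_injective j hj
    have hcl : ∀ z ∈ Subgroup.closure ({a, b} : Set Spor.Fi23), z * z = 1 ∧ Commute z a ∧ Commute z b := by
      intro z hz
      induction hz using Subgroup.closure_induction with
      | mem z hz =>
        rcases hz with rfl | rfl
        · exact ⟨hsq ha, Commute.refl _, habc⟩
        · exact ⟨hsq hb.1, habc.symm, Commute.refl _⟩
      | one => exact ⟨one_mul 1, Commute.one_left a, Commute.one_left b⟩
      | mul z w hz' hw' ihz ihw =>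
        have hzw : Commute z w := ((commute_closure_iff (S := {a, b}) (g := z)).2
          (by rintro s (rfl | rfl); exacts [ihz.2.1.symm, ihz.2.2.symm]) w hw').symm
        exact ⟨by rw [hzw.symm.mul_mul_mul_comm, ihz.1, ihw.1, one_mul], ihz.2.1.mul_left ihw.2.1,
          ihz.2.2.mul_left ihw.2.2⟩
      | inv z _ ih => exact ⟨by rw [← mul_inv_rev, ih.1, inv_one], ih.2.1.inv_left, ih.2.2.inv_left⟩
    have hbot : N = ⊥ := by
      refine odd_normal_trivial hq ⟨⟨a, memK.2 ⟨Commute.refl a, habc⟩⟩, ?_⟩ ?_ N hNodd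
      · rw [← Subgroup.orderOf_coe]; exact set23.1 a ha
      · intro z hz
        refine Subtype.ext ?_
        have hm : (z : Spor.Fi23) ∈ (Subgroup.center ↥K).map K.subtype := ⟨z, hz, rfl⟩
        rw [hZ] at hm
        exact (hcl _ hm).1
    have hm : (⟨h, hhK⟩ : ↥K) ∈ N := by rw [← hN]; exact ho
    rw [hbot, Subgroup.mem_bot] at hm
    rw [show h = 1 from congrArg Subtype.val hm, map_one]
  -- the core is trivial
  have hinv : ∀ x ∈ nbr cls23 a ∩ nbr cls23 b, ∀ o ∈ O, E.ψ x * o * (E.ψ x)⁻¹ = o⁻¹ := by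
    intro x hx o ho
    have hxx : E.ψ x * E.ψ x = 1 := by rw [← map_mul, hsq hx.1.1, map_one]
    have hxM : E.ψ x ∈ M := hKM (memK.2 ⟨hx.1.2.2.symm, hx.2.2.2.symm⟩)
    obtain ⟨F, hF⟩ : ∃ F : ↥O → ↥O, ∀ p, (F p : G) = (p : G)⁻¹ * (E.ψ x * p * (E.ψ x)⁻¹) :=
      ⟨fun p => ⟨_, mul_mem (inv_mem p.2) (hOn _ hxM _ p.2)⟩, fun _ => rfl⟩
    have hFi : Function.Injective F := fun p q e => by
      have e' := congrArg Subtype.val e
      rw [hF, hF] at e'
      have h1 : Commute ((q : G) * (p : G)⁻¹) (E.ψ x) := by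
        show (q : G) * (p : G)⁻¹ * E.ψ x = E.ψ x * ((q : G) * (p : G)⁻¹)
        calc (q : G) * (p : G)⁻¹ * E.ψ x
            = q * ((p : G)⁻¹ * (E.ψ x * p * (E.ψ x)⁻¹)) * E.ψ x * (p : G)⁻¹ := by group
          _ = q * ((q : G)⁻¹ * (E.ψ x * q * (E.ψ x)⁻¹)) * E.ψ x * (p : G)⁻¹ := by rw [e']
          _ = E.ψ x * ((q : G) * (p : G)⁻¹) := by group
      have := hO1 _ (mul_mem q.2 (inv_mem p.2)) (E.cent_cls hx.1.1 h1)
      exact Subtype.ext (mul_inv_eq_one.1 this).symm
    obtain ⟨p, hp⟩ := (Finite.injective_iff_surjective.1 hFi) ⟨o, ho⟩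
    have hp' : (p : G)⁻¹ * (E.ψ x * p * (E.ψ x)⁻¹) = o := by rw [← hF, hp]
    rw [← hp', inv_eq_of_mul_eq_one_right hxx, mul_inv_rev, inv_inv, mul_inv_rev, mul_inv_rev,
      inv_eq_of_mul_eq_one_right hxx]
    calc E.ψ x * ((p : G)⁻¹ * (E.ψ x * p * E.ψ x)) * E.ψ x
        = E.ψ x * (p : G)⁻¹ * E.ψ x * p * (E.ψ x * E.ψ x) := by simp [mul_assoc]
      _ = _ := by rw [hxx, mul_one]; simp [mul_assoc]
  have hperf := m23_common_perfect ttg23 primitive23 h23 ha hb
  have hsign : ∀ k ∈ Subgroup.closure (nbr cls23 a ∩ nbr cls23 b),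
      (∀ o ∈ O, E.ψ k * o * (E.ψ k)⁻¹ = o) ∨ ∀ o ∈ O, E.ψ k * o * (E.ψ k)⁻¹ = o⁻¹ := by
    intro k hk
    have hcomp : ∀ (u v : Spor.Fi23) (o : G), E.ψ (u * v) * o * (E.ψ (u * v))⁻¹ =
        E.ψ u * (E.ψ v * o * (E.ψ v)⁻¹) * (E.ψ u)⁻¹ := fun u v o => by rw [map_mul]; group
    induction hk using Subgroup.closure_induction'' with
    | mem x hx => exact Or.inr (hinv x hx)
    | inv_mem x hx => rw [tt_inv set23 hx.1.1]; exact Or.inr (hinv x hx)
    | one => exact Or.inl fun o _ => by rw [map_one]; group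
    | mul u v _ _ ihu ihv =>
      rcases ihu with hu | hu <;> rcases ihv with hv | hv
      · exact Or.inl fun o ho => by rw [hcomp, hv o ho, hu o ho]
      · exact Or.inr fun o ho => by rw [hcomp, hv o ho, hu _ (inv_mem ho)]
      · exact Or.inr fun o ho => by rw [hcomp, hv o ho, hu o ho]
      · exact Or.inl fun o ho => by rw [hcomp, hv o ho, hu _ (inv_mem ho), inv_inv]
  obtain ⟨T, hT⟩ : ∃ T : Subgroup ↥(Subgroup.closure (nbr cls23 a ∩ nbr cls23 b)),
      ∀ k, k ∈ T ↔ ∀ o ∈ O, Commute (E.ψ (k : Spor.Fi23)) o :=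
    ⟨(Subgroup.centralizer (O : Set G)).comap (E.ψ.comp (Subgroup.subtype _)), fun k => by
      rw [Subgroup.mem_comap, Subgroup.mem_centralizer_iff]
      exact forall₂_congr fun o _ => eq_comm⟩
  have hTtop : T = ⊤ := by
    refine eq_top_iff.2 ?_
    rw [← hperf.commutator_eq_top, commutator_def, Subgroup.commutator_le]
    intro u _ v _
    rw [hT]
    intro o ho
    have key : ∀ (p q : Spor.Fi23), p ∈ Subgroup.closure (nbr cls23 a ∩ nbr cls23 b) →
        q ∈ Subgroup.closure (nbr cls23 a ∩ nbr cls23 b) →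
        E.ψ p * (E.ψ q * o * (E.ψ q)⁻¹) * (E.ψ p)⁻¹ = E.ψ q * (E.ψ p * o * (E.ψ p)⁻¹) * (E.ψ q)⁻¹ := by
      intro p q hp hq
      rcases hsign p hp with h1 | h1 <;> rcases hsign q hq with h2 | h2 <;>
        simp only [h1 _ ho, h2 _ ho, h1 _ (inv_mem ho), h2 _ (inv_mem ho)]
    have hu := u.2
    have hv := v.2
    generalize hu' : (u : Spor.Fi23) = p at hu
    generalize hv' : (v : Spor.Fi23) = q at hv
    rw [commutatorElement_def, Subgroup.coe_mul, Subgroup.coe_mul, Subgroup.coe_mul,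
      InvMemClass.coe_inv, InvMemClass.coe_inv, hu', hv']
    have h3 := key p⁻¹ q⁻¹ (inv_mem hu) (inv_mem hv)
    refine mul_inv_eq_iff_eq_mul.1 ?_
    calc E.ψ (p * q * p⁻¹ * q⁻¹) * o * (E.ψ (p * q * p⁻¹ * q⁻¹))⁻¹
        = E.ψ p * (E.ψ q * (E.ψ p⁻¹ * (E.ψ q⁻¹ * o * (E.ψ q⁻¹)⁻¹) * (E.ψ p⁻¹)⁻¹) * (E.ψ q)⁻¹) *
            (E.ψ p)⁻¹ := by simp only [map_mul, map_inv]; group
      _ = _ := by rw [h3]; simp only [map_inv]; group
  have hObot : pPrimeCore 2 ↥M = ⊥ := by
    refine (Subgroup.eq_bot_iff_forall _).2 fun z hz => Subtype.ext ?_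
    have ho : (z : G) ∈ O := hO ▸ ⟨z, hz, rfl⟩
    obtain ⟨x, hx⟩ : (nbr cls23 a ∩ nbr cls23 b).Nonempty := by
      obtain ⟨hnc, -, -⟩ := m23_bar ttg23 primitive23 h23 ha
      exact Set.nonempty_of_ncard_ne_zero (by
        rw [bar_card_comm ttg23 hnc (m23_levels ttg23 primitive23 h23 ha) hb]; norm_num)
    have h1 : (⟨x, Subgroup.subset_closure hx⟩ : ↥(Subgroup.closure (nbr cls23 a ∩ nbr cls23 b))) ∈ T :=
      hTtop ▸ Subgroup.mem_top _
    have h2 := (hT _).1 h1 _ ho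
    have h3 := hinv x hx _ ho
    rw [h2.eq, mul_inv_cancel_right] at h3
    have h4 : (⟨(z : G), ho⟩ : ↥O) ^ 2 = 1 :=
      Subtype.ext (by
        rw [Subgroup.coe_pow, pow_two]
        exact (congrArg ((z : G) * ·) h3).trans (mul_inv_cancel _))
    have h5 := orderOf_eq_one_iff.1 (Nat.eq_one_of_dvd_coprimes
      (Nat.coprime_two_left.2 hOodd) (orderOf_dvd_of_pow_eq_one h4) (orderOf_dvd_natCard _))
    exact congrArg (Subtype.val : ↥O → G) h5
  -- modulo the involution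
  obtain ⟨iM, hiM'⟩ : ∃ i : ↥M, (i : G) = E.ψ (a * b) := ⟨⟨_, hiM⟩, rfl⟩
  obtain ⟨dM, hdM⟩ : ∃ i : ↥M, (i : G) = E.ψ a := ⟨⟨_, haM⟩, rfl⟩
  have hicen : iM ∈ Subgroup.center ↥M := Subgroup.mem_center_iff.2 fun z => Subtype.ext (by
    rw [Subgroup.coe_mul, Subgroup.coe_mul, hiM']
    exact (memM.1 z.2).eq)
  have hii : iM * iM = 1 := Subtype.ext (by
    rw [Subgroup.coe_mul, hiM', ← map_mul, habc.symm.mul_mul_mul_comm, hsq ha, hsq hb.1, one_mul,
      map_one]
    rfl)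
  have hi1 : iM ≠ 1 := fun e => hb.2.1 (by
    have := congrArg Subtype.val e
    rw [hiM', OneMemClass.coe_one, ← map_one E.ψ] at this
    have h := E.inj this
    calc b = a * a * b := by rw [hsq ha, one_mul]
      _ = a := by rw [mul_assoc, h, mul_one])
  obtain ⟨N, hNdef⟩ : ∃ N, Subgroup.zpowers iM = N := ⟨_, rfl⟩
  have hNc : N ≤ Subgroup.center ↥M := hNdef ▸ Subgroup.zpowers_le.2 hicen
  have : N.Normal := ⟨fun n hn g => by
    rw [Subgroup.mem_center_iff.1 (hNc hn) g, mul_inv_cancel_right]; exact hn⟩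
  have hio : orderOf iM = 2 := orderOf_eq_prime (p := 2) (by rw [pow_two, hii]) hi1
  have hN2 : Nat.card N = 2 := by rw [← hNdef, Nat.card_zpowers, hio]
  have hNmem : ∀ z ∈ N, z = 1 ∨ z = iM := fun z hz => by
    rw [← hNdef] at hz
    obtain ⟨n, rfl⟩ := Subgroup.mem_zpowers_iff.1 hz
    rcases Int.even_or_odd n with ⟨j, hj⟩ | ⟨j, hj⟩ <;> subst hj
    · left; rw [← two_mul, zpow_mul, zpow_two, hii, one_zpow]
    · right; rw [zpow_add_one, zpow_mul, zpow_two, hii, one_zpow, one_mul]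
  obtain ⟨π, hπ⟩ : ∃ π : ↥M →* ↥M ⧸ N, π = QuotientGroup.mk' N := ⟨_, rfl⟩
  have hπ1 : ∀ z, π z = 1 ↔ z ∈ N := fun z => by rw [hπ]; exact QuotientGroup.eq_one_iff z
  -- the images of the conjugates of `a` commuting with it
  have hclose : ∀ m : ↥M, (m : G) * E.ψ a * (m : G)⁻¹ ∈ E.ψ.range →
      (m : G) * E.ψ a * (m : G)⁻¹ = E.ψ a ∨ (m : G) * E.ψ a * (m : G)⁻¹ = E.ψ b := by
    intro m hm
    obtain ⟨h, hh⟩ := E.fix_one ha hm
    have hhc : Commute h (a * b) := by
      have e := memM.1 m.2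
      rw [← hh, commute_iff_eq, ← map_mul, ← map_mul] at e
      exact E.inj e
    rw [← hh, ← map_inv, ← map_mul, ← map_mul]
    rcases perm_pair h23 ha hb hhc with e | e
    · exact Or.inl (congrArg E.ψ e.1)
    · exact Or.inr (congrArg E.ψ e.1)
  have hbi : E.ψ b = E.ψ a * E.ψ (a * b) := by rw [← map_mul, ← mul_assoc, hsq ha, one_mul]
  have hisol : ∀ q : ↥M ⧸ N, Commute (q * π dM * q⁻¹) (π dM) → q * π dM * q⁻¹ = π dM := by
    intro q hq
    obtain ⟨m, rfl⟩ : ∃ m, π m = q := by rw [hπ]; exact QuotientGroup.mk'_surjective N q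
    rw [← map_inv, ← map_mul, ← map_mul] at hq ⊢
    obtain ⟨w, hw⟩ : ∃ w, m * dM * m⁻¹ = w := ⟨_, rfl⟩
    rw [hw] at hq ⊢
    have hwv : (w : G) = (m : G) * E.ψ a * (m : G)⁻¹ := by rw [← hw, ← hdM]; rfl
    have hww : (w : G) * w = 1 := by
      rw [hwv, conj_mul, ← map_mul, hsq ha, map_one, mul_one, mul_inv_cancel]
    have haa : E.ψ a * E.ψ a = 1 := by rw [← map_mul, hsq ha, map_one]
    have hin : (w : G) ∈ E.ψ.range := by
      rcases hNmem _ ((hπ1 (w * dM * w * dM)).1 (by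
        simp only [map_mul]
        rw [show π w * π dM * π w * π dM = π w * π w * (π dM * π dM) by
            rw [mul_assoc (π w) (π dM), ← hq.eq]; simp [mul_assoc],
          ← map_mul, ← map_mul, show dM * dM = 1 from Subtype.ext (by
            rw [Subgroup.coe_mul, hdM]; exact haa),
          show w * w = 1 from Subtype.ext hww, map_one, one_mul])) with e | e <;>
        have e' := congrArg Subtype.val e <;>
        simp only [Subgroup.coe_mul, OneMemClass.coe_one, hdM, hiM'] at e'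
      · refine E.cent_cls ha (show (w : G) * E.ψ a = E.ψ a * w from ?_)
        calc (w : G) * E.ψ a
            = ((w : G) * E.ψ a * w * E.ψ a) * (E.ψ a)⁻¹ * (w : G)⁻¹ := by group
          _ = E.ψ a * w := by
            rw [e', one_mul, inv_eq_of_mul_eq_one_right haa, inv_eq_of_mul_eq_one_right hww]
      · refine E.fix_one ha ?_
        rw [show (w : G) * E.ψ a * (w : G)⁻¹ = ((w : G) * E.ψ a * w * E.ψ a) * (E.ψ a)⁻¹ *
          ((w : G) * w)⁻¹ by group, e', hww, inv_one, mul_one]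
        exact mul_mem (MonoidHom.mem_range.2 ⟨_, rfl⟩) (inv_mem (MonoidHom.mem_range.2 ⟨a, rfl⟩))
    rcases hclose m (hwv ▸ hin) with e | e
    · rw [show w = dM from Subtype.ext (by rw [hwv, e, hdM])]
    · rw [show w = dM * iM from Subtype.ext (by
        rw [hwv, e, Subgroup.coe_mul, hdM, hiM', hbi]), map_mul,
        (hπ1 iM).2 (hNdef ▸ Subgroup.mem_zpowers iM), mul_one]
  -- the Z*-theorem
  have hp2 : IsPGroup 2 ↥(Subgroup.zpowers (π dM)) := by
    intro z
    refine ⟨1, Subtype.ext ?_⟩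
    obtain ⟨n, hn⟩ := Subgroup.mem_zpowers_iff.1 z.2
    rw [Subgroup.coe_pow, pow_one, ← hn, ← zpow_natCast, ← zpow_mul, mul_comm n, zpow_mul,
      zpow_natCast, pow_two, ← map_mul, show dM * dM = 1 from Subtype.ext (by
        rw [Subgroup.coe_mul, hdM, ← map_mul, hsq ha, map_one]; rfl), map_one, one_zpow]
    rfl
  obtain ⟨S, hS⟩ := hp2.exists_le_sylow
  have htS : π dM ∈ (S : Subgroup (↥M ⧸ N)) := hS (Subgroup.mem_zpowers _)
  have hcen : ∀ y ∈ (S : Subgroup (↥M ⧸ N)), Commute y (π dM) := by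
    have : Fact (Nat.Prime 2) := ⟨Nat.prime_two⟩
    obtain ⟨H, hH⟩ : ∃ H : Subgroup ↥(S : Subgroup (↥M ⧸ N)),
        Subgroup.centralizer ({⟨π dM, htS⟩} : Set ↥(S : Subgroup (↥M ⧸ N))) = H := ⟨_, rfl⟩
    have htop : H = ⊤ := by
      by_contra hne
      have : Group.IsNilpotent ↥(S : Subgroup (↥M ⧸ N)) := S.2.isNilpotent
      obtain ⟨y, hy, hyH⟩ := SetLike.exists_of_lt
        (Group.normalizerCondition_of_isNilpotent H (lt_top_iff_ne_top.2 hne))
      have h1 : y * ⟨π dM, htS⟩ * y⁻¹ ∈ H :=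
        (Subgroup.mem_normalizer_iff.1 hy _).1 (hH ▸ Subgroup.mem_centralizer_singleton_iff.2 rfl)
      rw [← hH, Subgroup.mem_centralizer_singleton_iff] at h1
      have h2 := hisol (y : ↥M ⧸ N) (congrArg Subtype.val h1)
      exact hyH (hH ▸ Subgroup.mem_centralizer_singleton_iff.2 (Subtype.ext (mul_inv_eq_iff_eq_mul.1 h2)))
    intro y hy
    have h1 : (⟨y, hy⟩ : ↥(S : Subgroup (↥M ⧸ N))) ∈ H := htop ▸ Subgroup.mem_top _
    rw [← hH, Subgroup.mem_centralizer_singleton_iff] at h1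
    exact congrArg Subtype.val h1
  have hz := OddCons48.inZStar_of_weaklyClosed S htS hcen fun q hq => hisol q (hcen _ hq)
  have hb0 : pPrimeCore 2 (↥M ⧸ N) = ⊥ := Fus.oddCore_quotient_central hObot N hN2 hNc
  have hgM : g ∈ M := memM.2 hg
  have hgz := hz (π ⟨g, hgM⟩)
  rw [hb0, Subgroup.mem_bot, mul_inv_eq_one] at hgz
  rw [← map_inv, ← map_mul, ← map_mul, ← mul_inv_eq_one, ← map_inv, ← map_mul] at hgz
  refine E.fix_one ha ?_
  rcases hNmem _ ((hπ1 _).1 hgz) with e | e <;>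
    have e' := congrArg Subtype.val e <;>
    simp only [Subgroup.coe_mul, InvMemClass.coe_inv, OneMemClass.coe_one, hdM, hiM'] at e'
  · rw [mul_inv_eq_one.1 e']
    exact MonoidHom.mem_range.2 ⟨a, rfl⟩
  · rw [mul_inv_eq_iff_eq_mul.1 e', ← map_mul]
    exact MonoidHom.mem_range.2 ⟨_, rfl⟩

/-- A conjugate outside and a member inside generate a group in which they are conjugate. -/
theorem odd_member {x : Spor.Fi23} (hx : x ∈ cls23) {y : G} (hy : IsConj d y) (hyr : y ∉ E.ψ.range) :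
    ∃ g ∈ Subgroup.closure ({E.ψ x, y} : Set G), g * E.ψ x * g⁻¹ = y := by
  have hd : d * d = 1 := E.sq_d
  have hyy : y * y = 1 := by
    obtain ⟨c, rfl⟩ := isConj_iff.1 hy
    rw [conj_mul, hd, mul_one, mul_inv_cancel]
  refine (dihedral54 (by rw [← map_mul, tt_mul_self set23 hx, map_one]) hyy).resolve_right ?_
  rintro ⟨k, hk1, -, hkx, hky, c, hc⟩
  obtain ⟨k', rfl⟩ := E.cent_cls hx hkx
  rw [← map_mul] at hc
  have hw : k' * x ∈ cls23 := E.mem_cls_of_conj (by
    rcases hc with hc | hc <;> rw [← hc]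
    · exact (E.conj_cls hx).trans (isConj_iff.2 ⟨c, rfl⟩)
    · exact hy.trans (isConj_iff.2 ⟨c, rfl⟩))
  have hkx' : Commute k' x := E.inj (by rw [map_mul, map_mul]; exact hkx.eq)
  refine hyr (E.cent_pair h23 (a := k' * x) (b := x) hw ⟨hx, fun e => hk1 ?_,
    hkx'.mul_left (Commute.refl x)⟩ ?_)
  · rw [show k' = 1 from mul_eq_right.1 e.symm, map_one]
  · rw [mul_assoc, tt_mul_self set23 hx, mul_one]
    exact hky.symm

/-- The centralizer of an involution of the subgroup lies in it. -/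
theorem cent_involution {t : Spor.Fi23} (ht : orderOf t = 2) {g : G} (hg : Commute g (E.ψ t)) :
    g ∈ E.ψ.range := by
  classical
  have := Fi23.finite_fi23
  obtain ⟨m, h1, h3, l, hnd, hlen, hmem, hcomm, hprod⟩ :=
    m23_involution_fact ttg23 primitive23 h23 ht
  match l, hlen, hnd, hmem, hcomm, hprod with
  | [], hlen, _, _, _, _ => simp at hlen; omega
  | [a], _, _, hmem, _, hprod =>
    have e : a = t := by simpa using hprod
    exact E.cent_cls (hmem a (by simp)) (e ▸ hg)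
  | [a, b], _, hnd, hmem, hcomm, hprod =>
    have e : a * b = t := by simpa using hprod
    have hne : a ≠ b := by simpa using hnd
    exact E.cent_pair h23 (hmem a (by simp)) ⟨hmem b (by simp), hne.symm, hcomm a (by simp) b (by simp)⟩
      (e.symm ▸ hg)
  | [a, b, c], _, hnd, hmem, hcomm, hprod =>
    by_contra hgr
    have ha := hmem a (by simp)
    have hb := hmem b (by simp)
    have hc := hmem c (by simp)
    have hne : a ≠ b ∧ a ≠ c ∧ b ≠ c := by
      simp only [List.nodup_cons, List.mem_cons, List.not_mem_nil, or_false, not_or, List.nodup_nil,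
        and_true, not_false_iff] at hnd
      exact ⟨hnd.1.1, hnd.1.2, hnd.2⟩
    obtain ⟨hnc, -, -⟩ := m23_bar ttg23 primitive23 h23 ha
    have hbn : b ∈ nbr cls23 a := ⟨hb, hne.1.symm, hcomm a (by simp) b (by simp)⟩
    have hcn : c ∈ nbr cls23 a := ⟨hc, hne.2.1.symm, hcomm a (by simp) c (by simp)⟩
    obtain ⟨x, hx⟩ : ((nbr cls23 a ∩ nbr cls23 b) ∩ nbr cls23 c).Nonempty :=
      Set.nonempty_of_ncard_ne_zero (by
        rw [bar_card_triple ttg23 hnc (m23_levels ttg23 primitive23 h23 ha) hbn hcn hne.2.2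
          (hcomm b (by simp) c (by simp))]
        norm_num)
    have hat : Commute a t := by
      rw [← hprod]
      exact Commute.list_prod_right _ _ fun z hz => hcomm a (by simp) z hz
    have hxt : Commute x t := by
      rw [← hprod]
      refine Commute.list_prod_right _ _ fun z hz => ?_
      simp only [List.mem_cons, List.not_mem_nil, or_false] at hz
      rcases hz with rfl | rfl | rfl
      · exact hx.1.1.2.2.symm
      · exact hx.1.2.2.2.symm
      · exact hx.2.2.2.symm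
    obtain ⟨y, hy⟩ : ∃ y, g * E.ψ a * g⁻¹ = y := ⟨_, rfl⟩
    have hyr : y ∉ E.ψ.range := fun h => hgr (E.fix_one ha (hy ▸ h))
    obtain ⟨k, hkc, hk⟩ := E.odd_member h23 hx.1.1.1
      (hy ▸ (E.conj_cls ha).trans (isConj_iff.2 ⟨g, rfl⟩)) hyr
    have hyt : Commute y (E.ψ t) := by
      rw [← hy, show E.ψ t = g * E.ψ t * g⁻¹ by rw [hg.eq, mul_inv_cancel_right], commute_conj_iff']
      exact hat.map E.ψ
    have hkt : Commute k (E.ψ t) := by
      refine (commute_closure_iff (S := {E.ψ x, y}) (g := E.ψ t)).2 ?_ k hkc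
      rintro s (rfl | rfl)
      · exact hxt.map E.ψ
      · exact hyt
    have hu : g⁻¹ * k * E.ψ x * (g⁻¹ * k)⁻¹ = E.ψ a := by
      rw [show g⁻¹ * k * E.ψ x * (g⁻¹ * k)⁻¹ = g⁻¹ * (k * E.ψ x * k⁻¹) * g by group, hk, ← hy]
      group
    obtain ⟨h, hh⟩ := E.fix_one hx.1.1.1 (g := g⁻¹ * k) (hu ▸ MonoidHom.mem_range.2 ⟨a, rfl⟩)
    have hht : Commute h t := E.inj (by
      rw [map_mul, map_mul, hh]
      exact (hg.inv_left.mul_left hkt).eq)
    have hxa : h * x * h⁻¹ = a := E.inj (by rw [map_mul, map_mul, map_inv, hh]; exact hu)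
    have key := factor_unique set23 (m23_noTwins_prim ttg23 primitive23 h23)
      (m23_noRel ttg23 primitive23 h23) 3 le_rfl [h * a * h⁻¹, h * b * h⁻¹, h * c * h⁻¹] [a, b, c]
      (by simp [hne.1, hne.2.1, hne.2.2]) rfl (by simp [conj_mem23 h ha, conj_mem23 h hb, conj_mem23 h hc])
      (by
        intro u hu v hv
        obtain ⟨u, hu', rfl⟩ := List.mem_map.1
          (show u ∈ [a, b, c].map (fun z => h * z * h⁻¹) from hu)
        obtain ⟨v, hv', rfl⟩ := List.mem_map.1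
          (show v ∈ [a, b, c].map (fun z => h * z * h⁻¹) from hv)
        exact commute_conj_iff'.2 (hcomm u hu' v hv'))
      (by simp [hne.1, hne.2.1, hne.2.2]) rfl hmem hcomm (by
        rw [hprod]
        simp only [List.prod_cons, List.prod_nil, mul_one]
        rw [conj_mul, conj_mul, show a * (b * c) = t by simpa using hprod, hht.eq,
          mul_inv_cancel_right]) a
    have := key.2 (by simp)
    simp only [List.mem_cons, List.not_mem_nil, or_false] at this
    have hxv : x ≠ a ∧ x ≠ b ∧ x ≠ c := ⟨hx.1.1.2.1, hx.1.2.2.1, hx.2.2.1⟩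
    rcases this with e | e | e <;>
      have e' := mul_left_cancel (mul_right_cancel (hxa.trans e))
    · exact hxv.1 e'
    · exact hxv.2.1 e'
    · exact hxv.2.2 e'
  | _ :: _ :: _ :: _ :: _, hlen, _, _, _, _ => simp at hlen; omega

/-- The subgroup is the whole group. -/
theorem surjective : Function.Surjective E.ψ := by
  classical
  have := Fi23.finite_fi23
  intro g
  by_contra hgr
  have hg : g ∉ E.ψ.range := fun h => hgr (MonoidHom.mem_range.1 h)
  have hz := z0_mem23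
  obtain ⟨y, hy⟩ : ∃ y, g * E.ψ Fi23.z0 * g⁻¹ = y := ⟨_, rfl⟩
  have hyr : y ∉ E.ψ.range := fun h => hg (E.fix_one hz (hy ▸ h))
  have hyd : IsConj d y := hy ▸ (E.conj_cls hz).trans (isConj_iff.2 ⟨g, rfl⟩)
  obtain ⟨hnc, -, -⟩ := m23_bar ttg23 primitive23 h23 hz
  obtain ⟨b, hb⟩ : (nbr cls23 Fi23.z0).Nonempty := by
    obtain ⟨u, l, hl⟩ := m23_exists_fact ttg23 primitive23 h23 (m := 2) (by norm_num) (by norm_num)
    match l, hl.2.1 with
    | [p, q], _ =>
      obtain ⟨k, hk⟩ := primitive23.1 p (hl.2.2.1 p (by simp)) _ hz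
      exact ⟨k * q * k⁻¹, hk ▸ nbr_conj ttg23 k
        ⟨hl.2.2.1 q (by simp), fun e => by simpa [e] using hl.1, hl.2.2.2.1 p (by simp) q (by simp)⟩⟩
  obtain ⟨u, hu⟩ : ∃ u, Fi23.z0 * b = u := ⟨_, rfl⟩
  have hl : IsFact cls23 2 u [Fi23.z0, b] :=
    ⟨by simp [Ne.symm hb.2.1], rfl, by simp [hz, hb.1], by simp [hb.2.2, hb.2.2.symm], by simp [hu]⟩
  have ho := m23_fact_orderOf ttg23 primitive23 h23 (by norm_num : 1 ≤ 2) (by norm_num) hl
  have huu : u * u = 1 := by rw [← pow_two, ← ho, pow_orderOf_eq_one]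
  have hd : d * d = 1 := E.sq_d
  have hyy : y * y = 1 := by
    obtain ⟨c, rfl⟩ := isConj_iff.1 hyd
    rw [conj_mul, hd, mul_one, mul_inv_cancel]
  rcases dihedral54 (x := E.ψ u) (by rw [← map_mul, huu, map_one]) hyy with
    ⟨c, -, hc⟩ | ⟨k, hk1, hkk, hku, hky, -⟩
  · have hcls : u ∈ cls23 := E.mem_cls_of_conj (hyd.trans (isConj_iff.2 ⟨c⁻¹, by rw [← hc]; group⟩))
    have h12 := m23_fact_length_le ttg23 primitive23 h23 2 [Fi23.z0, b] [u] (by simp) hl.1 hl.2.2.1
      hl.2.2.2.1 (by simp) (by simp) (by simp [hcls]) (by simp) (by simp) (by simp [hu])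
    simp at h12
  · obtain ⟨k', rfl⟩ := E.cent_involution h23 ho hku
    have hk2 : orderOf k' = 2 := orderOf_eq_prime (p := 2)
      (E.inj (by rw [map_pow, pow_two, hkk, map_one])) fun e => hk1 (by rw [e, map_one])
    exact hyr (E.cent_involution h23 hk2 hky.symm)

end Embedded

end CfsgLib.Fi23Recog54
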